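import Cfsg.Agent.AutO.MinusO
import Cfsg.Agent.S2696
import Cfsg.Agent.AutLie.CycIndex
import Cfsg.Agent.AutLie.FixField

/-!
Outer automorphism groups of the minus type groups.
-/

set_option autoImplicit false

namespace Cfsg.Agent.AutO

open QuadraticMap Cfsg.Agent.ClassO
open Cfsg.Agent.Orth hiding map_mul two_ne_zero_of_odd

theorem sqc_one' {F : Type*} [Field F] : sqc (1 : F) = 1 := if_pos IsSquare.one

section frob
variable {F : Type*} [Field F] [Finite F] {p : ℕ} [hp : Fact p.Prime] [CharP F p]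

theorem frj_pow (n : ℕ) : frj F p 1 ^ n = frj F p n := by
  induction n with
  | zero =>
    ext x
    rw [pow_zero, frj_apply, pow_zero, pow_one]; rfl
  | succ n ih => rw [pow_succ, ih, frj_add]

theorem orderOf_frj {f : ℕ} (hF : Nat.card F = p ^ f) (hf : 1 ≤ f) : orderOf (frj F p 1) = f := by
  classical
  have := Fintype.ofFinite F
  rw [Nat.card_eq_fintype_card] at hF
  have hp1 := hp.out.one_lt
  rw [orderOf_eq_iff (by omega)]
  constructor
  · ext x
    rw [frj_pow, frj_apply, ← hF, FiniteField.pow_card]; rfl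
  · intro k hk hk0 h
    have h1 : ∀ x : F, x ^ p ^ k = x := by
      intro x
      rw [← frj_apply, ← frj_pow, h]; rfl
    have h2 : Fintype.card F ≤ p ^ k := by
      let P : Polynomial F := Polynomial.X ^ p ^ k - Polynomial.X
      have hP : P ≠ 0 := FiniteField.X_pow_card_pow_sub_X_ne_zero F (n := k) (p := p) (by omega) hp1
      have hdeg : P.natDegree = p ^ k := FiniteField.X_pow_card_pow_sub_X_natDegree_eq F (by omega) hp1
      have h3 : (Finset.univ : Finset F) ⊆ P.roots.toFinset := by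
        intro x _
        rw [Multiset.mem_toFinset, Polynomial.mem_roots hP, Polynomial.IsRoot.def]
        simp [P, h1]
      calc Fintype.card F = (Finset.univ : Finset F).card := rfl
        _ ≤ P.roots.toFinset.card := Finset.card_le_card h3
        _ ≤ Multiset.card P.roots := Multiset.toFinset_card_le _
        _ ≤ P.natDegree := Polynomial.card_roots' P
        _ = p ^ k := hdeg
    rw [hF] at h2
    have := (Nat.pow_le_pow_iff_right hp1).1 h2
    omega

theorem frj_gen {f : ℕ} (hF : Nat.card F = p ^ f) (hf : 1 ≤ f) (σ : RingAut F) : ∃ k : ℕ, frj F p k = σ := by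
  have := Fintype.ofFinite F
  have hF' := hF
  rw [Nat.card_eq_fintype_card] at hF'
  obtain ⟨_, hcard⟩ := AutPSL.ringAut_cyclic_card F hF'
  have hfin : Finite (RingAut F) :=
    Finite.of_injective (fun τ : RingAut F => (τ : F → F)) (fun a b h => RingEquiv.ext (congrFun h))
  have h2 : Subgroup.zpowers (frj F p 1) = ⊤ := by
    apply Subgroup.eq_top_of_card_eq
    rw [Nat.card_zpowers, orderOf_frj hF hf, hcard]
  have h3 : σ ∈ Subgroup.zpowers (frj F p 1) := by rw [h2]; trivial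
  rw [← mem_powers_iff_mem_zpowers] at h3
  obtain ⟨k, hk⟩ := h3
  exact ⟨k, by rw [← hk]; exact (frj_pow k).symm⟩

theorem frj_eq_one_iff {f : ℕ} (hF : Nat.card F = p ^ f) (hf : 1 ≤ f) (n : ℕ) : frj F p n = 1 ↔ f ∣ n := by
  rw [← frj_pow, ← orderOf_dvd_iff_pow_eq_one, orderOf_frj hF hf]

end frob

section K
variable {F : Type*} [Field F] {a b : F} {m : ℕ} [hab : Fact (∀ r : F, r ^ 2 ≠ -b + a * r)] [Finite F]

local notation "𝕍" => ((Fin m ⊕ Fin m) ⊕ Fin 2 → F)

omit [Finite F] in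
theorem aniso_of_fact (z₁ z₂ : F) (hz : z₁ ^ 2 + a * z₁ * z₂ + b * z₂ ^ 2 = 0) : z₁ = 0 ∧ z₂ = 0 := by
  by_cases h2 : z₂ = 0
  · rw [h2] at hz
    simp at hz
    exact ⟨hz, h2⟩
  · exfalso
    apply hab.out (-z₁ / z₂)
    field_simp
    linear_combination hz

theorem exists_nu (c : Fˣ) : ∃ κ : (KK a b)ˣ, nu κ = c := by
  obtain ⟨v, hv⟩ := exists_q_eq (qfMinus_nondegenerate 0 F (disc_ne_zero_of_aniso (aniso_of_fact (a := a) (b := b))))
    (by rw [Module.finrank_fintype_fun_eq_card]; simp) (c : F)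
  rw [q_minus, Finset.univ_eq_empty, Finset.sum_empty, zero_add] at hv
  have h0 : tob a b v ≠ 0 := by
    intro h
    rw [h, QuadraticAlgebra.norm_zero] at hv
    exact c.ne_zero hv.symm
  exact ⟨Units.mk0 (tob a b v) h0, Units.ext hv⟩

variable (p : ℕ) [hp : Fact p.Prime] [CharP F p]

/-- decomposition of semisimilarities -/
theorem gam_decomp {f : ℕ} (hF : Nat.card F = p ^ f) (hf : 1 ≤ f) (g : GamO (qfMinus m F a b)) :
    ∃ (κ : (KK a b)ˣ) (j : ℕ) (k : OGrp (qfMinus m F a b)), g = gK p m κ 0 * gK p m 1 j * ofO _ k := by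
  obtain ⟨σ, c, hg⟩ := g.2
  obtain ⟨j, hj⟩ := frj_gen (p := p) hF hf σ
  obtain ⟨κ, hκ⟩ := exists_nu (a := a) (b := b) c
  have h1 : gK p m κ 0 * gK p m 1 j = gK p m κ j := by rw [gK_mul, one_pow, mul_one, zero_add]
  have h2 := (isSemi_gK (m := m) p κ j).inv.mul hg
  rw [hj, hκ] at h2
  have h3 : (Units.map ((σ⁻¹ : RingAut F) : F →* F) c⁻¹ * Units.map ((σ⁻¹ : RingAut F) : F →* F) c : Fˣ) = 1 := by
    rw [← map_mul, inv_mul_cancel, map_one]
  rw [inv_mul_cancel, h3] at h2
  obtain ⟨k, hk⟩ := exists_ofO (f := (gK p m κ j)⁻¹ * g) h2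
  exact ⟨κ, j, k, by rw [h1, ← hk, mul_inv_cancel_left]⟩

theorem exists_A (hQ : (polarBilin (qfMinus m F a b)).Nondegenerate) (hR : RGrp (qfMinus m F a b) = ⊤) (κ : (KK a b)ˣ) :
    ∃ A : OGrp (qfMinus m F a b), gK p m (κ ^ 2) 0 = scl _ (nu κ) * ofO _ A ∧ parityHom hQ hR A = 1 ∧
      spinHom hQ hR A = sqc ((nu κ : Fˣ) : F) ^ (m + 1) := by
  obtain ⟨g, h1, h2, h3, h4, h5⟩ := exists_hI hQ hR (nu κ) Finset.univ
  have hκ : (κ : KK a b) ≠ 0 := κ.ne_zero
  refine ⟨g * (rK m hκ * rK m one_ne_zero), gam_ext fun v => ?_, ?_, ?_⟩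
  · have hc := (nu κ : Fˣ).ne_zero
    rw [gK_apply]
    change gKf p (κ ^ 2) 0 v = ((nu κ : Fˣ) : F) • (g : 𝕍 ≃ₗ[F] 𝕍) ((rK m hκ : 𝕍 ≃ₗ[F] 𝕍) ((rK m (one_ne_zero : (1 : KK a b) ≠ 0) : 𝕍 ≃ₗ[F] 𝕍) v))
    apply vec_ext (a := a) (b := b)
    · intro i
      rw [Pi.smul_apply, h3, if_pos (Finset.mem_univ i), hyp_rK, hyp_rK]
      change v _ ^ p ^ 0 = ((nu κ : Fˣ) : F) * (((nu κ : Fˣ) : F)⁻¹ * _)
      rw [pow_zero, pow_one, mul_inv_cancel_left₀ hc]
    · intro i
      rw [Pi.smul_apply, h4, if_pos (Finset.mem_univ i), hyp_rK, hyp_rK]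
      change ((nu (κ ^ 2) : Fˣ) : F) * v _ ^ p ^ 0 = ((nu κ : Fˣ) : F) * (((nu κ : Fˣ) : F) * _)
      rw [pow_zero, pow_one, map_pow, Units.val_pow_eq_pow_val]; ring
    · rw [tob_smul, h5, tob_rK, tob_rK, coe_nu, QuadraticAlgebra.algebraMap_norm_eq_mul_star]
      change ((κ ^ 2 : (KK a b)ˣ) : KK a b) * tob a b v ^ p ^ 0 = _
      rw [pow_zero, pow_one, Units.val_pow_eq_pow_val, star_one, div_one, one_mul, star_neg, star_star]
      have h6 := star_ne hκ
      field_simp
  · rw [map_mul, map_mul, h1, rK, rK, parityHom_refl, parityHom_refl]; rfl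
  · rw [map_mul, map_mul, h2, rK, rK, spinHom_refl, spinHom_refl, q_vK, q_vK, QuadraticAlgebra.norm_one, Finset.card_univ,
      Fintype.card_fin, pow_succ, ← coe_nu]
    congr 1
    rw [sqc_one', mul_one]

/-- minus one -/
noncomputable def nO {V : Type*} [AddCommGroup V] [Module F V] (Q : QuadraticForm F V) : OGrp Q :=
  ⟨LinearEquiv.neg F, fun v => by
    change Q (-v) = _
    rw [QuadraticMap.map_neg]⟩

omit [Finite F] in
theorem nO_apply {V : Type*} [AddCommGroup V] [Module F V] (Q : QuadraticForm F V) (v : V) :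
    (nO Q : V ≃ₗ[F] V) v = - v := rfl

omit [Finite F] in
theorem ofO_nO {V : Type*} [AddCommGroup V] [Module F V] (Q : QuadraticForm F V) : ofO Q (nO Q) = scl Q (-1) :=
  gam_ext fun v => by
    change -v = ((-1 : Fˣ) : F) • v
    rw [Units.val_neg, Units.val_one, neg_smul, one_smul]

theorem nO_minus (hQ : (polarBilin (qfMinus m F a b)).Nondegenerate) (hR : RGrp (qfMinus m F a b) = ⊤) :
    parityHom hQ hR (nO _) = 1 ∧ spinHom hQ hR (nO _) = sqc (-1 : F) ^ m * sqc (4 * b - a ^ 2) := by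
  obtain ⟨g, h1, h2, h3, h4, h5⟩ := exists_hI hQ hR (-1) Finset.univ
  have he : nO (qfMinus m F a b) = g * (rK m one_ne_zero * rK m w0_ne) := by
    apply OGrp_ext
    intro v
    rw [nO_apply, coe_mul_apply, coe_mul_apply]
    apply vec_ext (a := a) (b := b)
    · intro i
      rw [h3, if_pos (Finset.mem_univ i), hyp_rK, hyp_rK, Units.val_neg, Units.val_one, inv_neg, inv_one, neg_mul, one_mul]
      rfl
    · intro i
      rw [h4, if_pos (Finset.mem_univ i), hyp_rK, hyp_rK, Units.val_neg, Units.val_one, neg_mul, one_mul]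
      rfl
    · rw [tob_neg, h5, tob_rK, tob_rK, star_w0, star_one, div_one, one_mul]
      have h6 := w0_ne (a := a) (b := b)
      rw [mul_comm, mul_div_assoc, div_neg, div_self h6, mul_neg, mul_one, neg_neg, star_star]
  constructor
  · rw [he, map_mul, map_mul, h1, rK, rK, parityHom_refl, parityHom_refl]; rfl
  · rw [he, map_mul, map_mul, h2, rK, rK, spinHom_refl, spinHom_refl, q_vK, q_vK, QuadraticAlgebra.norm_one, norm_w0,
      Finset.card_univ, Fintype.card_fin, Units.val_neg, Units.val_one]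
    congr 1
    rw [sqc_one', one_mul]

theorem hall_minus [Fintype F] (hm : 3 ≤ m) (α : MulAut (T (qfMinus m F a b))) : ∃ f : GamO (qfMinus m F a b), α = cO _ f :=
  hall_of_gamma (Q := qfMinus m F a b) (Cfsg.Agent.S2696.result hm a b aniso_of_fact) α

/-- `Out(PΩ⁻)` in characteristic two -/
theorem out_minus_two {F : Type*} [Field F] [Fintype F] {a b : F} [hab : Fact (∀ r : F, r ^ 2 ≠ -b + a * r)]
    {f m : ℕ} (hf : 1 ≤ f) (hF : Fintype.card F = 2 ^ f) (hm : 3 ≤ m) :
    IsCyclic (Cfsg.Out (T (qfMinus m F a b))) ∧ Nat.card (Cfsg.Out (T (qfMinus m F a b))) = 2 * f := by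
  have hp2 : Fact (Nat.Prime 2) := ⟨Nat.prime_two⟩
  have hcp : CharP F 2 := AutLie.charP_of_card hF
  have hG : Good (qfMinus m F a b) := good_minus hm aniso_of_fact
  have hR := hG.rg
  have hnd := hG.nd
  have hdim := hG.dim
  have hF' : Nat.card F = 2 ^ f := by rw [Nat.card_eq_fintype_card, hF]
  have hsq : ∀ c : F, IsSquare c := fun c => FiniteField.isSquare_of_char_two (ringChar.eq F 2) c
  have hspin : ∀ g : OGrp (qfMinus m F a b), spinHom hnd hR g = 1 := by
    intro g
    have : spinHom hnd hR = 1 := hom_ext_refl hR fun v hv => by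
      rw [spinHom_refl, sqc, if_pos (hsq _)]; rfl
    rw [this]; rfl
  have hall := hall_minus (a := a) (b := b) hm
  set y := oP (qfMinus m F a b) (gK 2 m 1 1) with hy
  have hypow : ∀ n : ℕ, y ^ n = oP _ (gK 2 m 1 n) := fun n => by rw [hy, ← map_pow, gK_one_pow]
  have hyf : y ^ f = oP _ (ofO _ (rK m w0_ne)) := by rw [hypow, gK_f 2 hF']
  have hO : ∀ k : OGrp (qfMinus m F a b), ∃ n : ℕ, oP _ (ofO _ k) = y ^ n := by
    intro k
    by_cases hk : parityHom hnd hR k = 1
    · obtain ⟨h, rfl⟩ := exists_om hnd hR hk (hspin k)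
      exact ⟨0, by rw [pow_zero]; exact oP_om h⟩
    · obtain ⟨h, hh⟩ := exists_om hnd hR (g := k * (rK m w0_ne)⁻¹) (by
        rw [map_mul, map_inv, rK, parityHom_refl, units_int_ne_one hk]; rfl) (hspin _)
      have : k = (h : OGrp (qfMinus m F a b)) * rK m w0_ne := by rw [hh, inv_mul_cancel_right]
      exact ⟨f, by rw [this, map_mul, map_mul, oP_om, one_mul, hyf]⟩
  have hgen : ∀ g : Cfsg.Out (T (qfMinus m F a b)), ∃ n : ℕ, g = y ^ n := by
    intro g
    obtain ⟨g, rfl⟩ := oP_surjective hall g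
    obtain ⟨κ, j, k, rfl⟩ := gam_decomp 2 hF' hf g
    obtain ⟨d, k', hk'⟩ := exists_scl_ofO (f := gK 2 m κ 0) (c := nu κ) (by
      have := isSemi_gK (m := m) 2 κ 0
      rwa [(frj_eq_one_iff hF' hf 0).2 (dvd_zero f)] at this) (hsq _)
    obtain ⟨n1, h1⟩ := hO k
    obtain ⟨n2, h2⟩ := hO k'
    exact ⟨n2 + j + n1, by rw [map_mul, map_mul, hk', map_mul, oP_scl, one_mul, h1, h2, ← hypow, pow_add, pow_add]⟩
  have hord : orderOf y = 2 * f := by
    rw [orderOf_eq_iff (by omega)]
    constructor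
    · rw [mul_comm, pow_mul, hyf, pow_two, ← map_mul, ← map_mul, rK, refl_mul_self, map_one, map_one]
    · intro n hn hn0 h
      rw [hypow, oP_eq_one_iff] at h
      obtain ⟨c, g, hcg⟩ := h
      have h3 := isSemi_gK (m := m) 2 (1 : (KK a b)ˣ) n
      rw [hcg] at h3
      have h4 := (isSemi_scl (Q := qfMinus m F a b) c).mul (isSemi_ofO (g : OGrp (qfMinus m F a b)))
      have h5 := IsSemi.uniq h3 h4 (Module.nontrivial_of_finrank_pos (R := F) (by omega))
      rw [one_mul, frj_eq_one_iff hF' hf] at h5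
      have hnf : n = f := by
        obtain ⟨k, rfl⟩ := h5
        have : k < 2 := by
          by_contra h
          have : f * 2 ≤ f * k := Nat.mul_le_mul_left f (by omega)
          omega
        have : k ≠ 0 := by rintro rfl; omega
        have : k = 1 := by omega
        rw [this, mul_one]
      rw [hnf, gK_f 2 hF'] at hcg
      have h6 : oP _ (ofO (qfMinus m F a b) (rK m w0_ne)) = 1 := by rw [hcg, map_mul, oP_scl, oP_om, one_mul]
      obtain ⟨d, hd, h, hh⟩ := (oP_ofO_eq_one_iff _).1 h6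
      have hd1 : d = 1 := by
        rcases hd with hd | hd
        · exact hd
        · rw [hd]; exact CharTwo.neg_eq 1
      have h7 : rK m w0_ne = (h : OGrp (qfMinus m F a b)) := OGrp_ext fun v => by rw [hh, hd1, one_smul]
      have h8 := ((mem_commutator_iff_homs hnd hR (h : OGrp (qfMinus m F a b))).1 h.2).1
      rw [← h7, rK, parityHom_refl] at h8
      exact absurd h8 (by decide)
  constructor
  · exact ⟨y, fun x => by
      obtain ⟨n, rfl⟩ := hgen x
      exact Subgroup.npow_mem_zpowers y n⟩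
  · rw [← hord, ← Nat.card_zpowers]
    have : Subgroup.zpowers y = ⊤ := by
      rw [eq_top_iff]
      intro x _
      obtain ⟨n, rfl⟩ := hgen x
      exact Subgroup.npow_mem_zpowers y n
    rw [this, Subgroup.card_top]

end K

end Cfsg.Agent.AutO
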