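import Cfsg.Agent.AutO.OutMinus

/-!
Outer automorphism groups of the minus type groups in odd characteristic.
-/

set_option autoImplicit false

namespace Cfsg.Agent.AutO

open QuadraticMap Cfsg.Agent.ClassO
open Cfsg.Agent.Orth hiding map_mul two_ne_zero_of_odd

theorem IsSemi.uniq_c {F V : Type*} [Field F] [AddCommGroup V] [Module F V] {Q : QuadraticForm F V}
    {f : Equiv.Perm V} {σ τ : RingAut F} {c d : Fˣ} (h1 : IsSemi Q f σ c) (h2 : IsSemi Q f τ d)
    (hV : Nontrivial V) {v : V} (hv : Q v ≠ 0) : c = d := by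
  have h3 := IsSemi.uniq h1 h2 hV
  subst h3
  have h4 := h1.q v
  rw [h2.q] at h4
  have h5 : σ (Q v) ≠ 0 := fun h => hv (σ.injective (h.trans (map_zero σ).symm))
  exact (Units.ext (mul_right_cancel₀ h5 h4)).symm

section K
variable {F : Type*} [Field F] [Fintype F] {a b : F} {m : ℕ} [hab : Fact (∀ r : F, r ^ 2 ≠ -b + a * r)]
  {p : ℕ} [hp : Fact p.Prime] [CharP F p]

omit [CharP F p] hp in
theorem disc_nonsquare (h2 : (2 : F) ≠ 0) : ¬ IsSquare (a ^ 2 - 4 * b) := by
  rintro ⟨s, hs⟩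
  apply hab.out ((a + s) / 2)
  field_simp
  linear_combination -hs

/-- the setting in odd characteristic: the elements `s`, `φ` of `Out` and their relations -/
theorem out_minus_odd_aux {f : ℕ} (hf : 1 ≤ f) (hF : Fintype.card F = p ^ f) (hp2 : p ≠ 2) (hm : 3 ≤ m) :
    ∃ s y : Cfsg.Out (T (qfMinus m F a b)), y * s = s ^ p * y ∧ y ^ (2 * f) = 1 ∧ s ^ 4 = 1 ∧
      (∀ g, ∃ i j : ℕ, g = s ^ i * y ^ j) ∧
      (¬ (p ^ f % 4 = 3 ∧ Even m) → s ^ 2 = 1 ∧ ∀ i j : ℕ, s ^ i * y ^ j = 1 → 2 ∣ i ∧ 2 * f ∣ j) ∧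
      (p ^ f % 4 = 3 ∧ Even m → ∀ i j : ℕ, s ^ i * y ^ j = 1 → 4 ∣ i ∧ 2 * f ∣ j) := by
  have hG : Good (qfMinus m F a b) := good_minus hm aniso_of_fact
  have hR := hG.rg
  have hnd := hG.nd
  have hdim := hG.dim
  have hF' : Nat.card F = p ^ f := by rw [Nat.card_eq_fintype_card, hF]
  have hodd : Odd (Fintype.card F) := by
    rw [hF]
    exact (hp.out.odd_of_ne_two hp2).pow
  have h2 : (2 : F) ≠ 0 := Cfsg.Agent.ClassO.two_ne_zero_of_odd hodd
  have hall := hall_minus (a := a) (b := b) hm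
  have hnt : Nontrivial ((Fin m ⊕ Fin m) ⊕ Fin 2 → F) := Module.nontrivial_of_finrank_pos (R := F) (by omega)
  obtain ⟨c, hc⟩ : ∃ c : F, ¬ IsSquare c := ⟨_, disc_nonsquare (a := a) (b := b) h2⟩
  have hc0 : c ≠ 0 := by rintro rfl; exact hc IsSquare.zero
  obtain ⟨κ0, hκ0⟩ := exists_nu (a := a) (b := b) (Units.mk0 c hc0)
  have hκc : ((nu κ0 : Fˣ) : F) = c := by rw [hκ0]; rfl
  set s := oP (qfMinus m F a b) (gK p m κ0 0) with hs
  set y := oP (qfMinus m F a b) (gK p m 1 1) with hy
  have hypow : ∀ n : ℕ, y ^ n = oP _ (gK p m 1 n) := fun n => by rw [hy, ← map_pow, gK_one_pow]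
  have hspow : ∀ n : ℕ, s ^ n = oP _ (gK p m (κ0 ^ n) 0) := fun n => by rw [hs, ← map_pow, gK_zero_pow]
  have hyf : y ^ f = oP _ (ofO _ (rK m w0_ne)) := by rw [hypow, gK_f p hF']
  have hy2f : y ^ (2 * f) = 1 := by
    rw [mul_comm, pow_mul, hyf, pow_two, ← map_mul, ← map_mul, rK, refl_mul_self, map_one, map_one]
  -- commutation
  have hcomm : y * s = s ^ p * y := by
    rw [hspow, hs, hy, ← map_mul, ← map_mul, gK_mul, gK_mul, one_mul, pow_one, pow_zero, pow_one, mul_one, add_zero, zero_add]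
  -- s ^ 2
  obtain ⟨A, hA1, hA2, hA3⟩ := exists_A (m := m) p hnd hR κ0
  have hs2 : s ^ 2 = oP _ (ofO _ A) := by rw [hspow, hA1, map_mul, oP_scl, one_mul]
  have hsqc : sqc c = -1 := if_neg hc
  rw [hκc, hsqc] at hA3
  -- minus one
  obtain ⟨hn1, hn2⟩ := nO_minus (m := m) (a := a) (b := b) hnd hR
  have hon : oP (qfMinus m F a b) (ofO _ (nO _)) = 1 := by rw [ofO_nO, oP_scl]
  have hdisc : sqc (4 * b - a ^ 2) = - sqc (-1 : F) := by
    have h3 : (4 * b - a ^ 2 : F) = (-1) * (a ^ 2 - 4 * b) := by ring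
    have h4 : (a ^ 2 - 4 * b : F) ≠ 0 := fun h => disc_nonsquare (a := a) (b := b) h2 (h ▸ IsSquare.zero)
    rw [h3, sqc_mul (neg_ne_zero.2 one_ne_zero) h4, sqc, sqc, if_neg (disc_nonsquare (a := a) (b := b) h2)]
    simp
  rw [hdisc] at hn2
  have hker' : ∀ g : OGrp (qfMinus m F a b), parityHom hnd hR g = 1 → spinHom hnd hR g = 1 → oP (qfMinus m F a b) (ofO _ g) = 1 := by
    intro g h3 h4
    obtain ⟨h, rfl⟩ := exists_om hnd hR h3 h4
    exact oP_om h
  have hker : ∀ g : OGrp (qfMinus m F a b), oP (qfMinus m F a b) (ofO _ g) = 1 → parityHom hnd hR g = 1 ∧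
      (spinHom hnd hR g = 1 ∨ spinHom hnd hR g = spinHom hnd hR (nO _)) := by
    intro g hg
    obtain ⟨c, hc, h, hh⟩ := (oP_ofO_eq_one_iff g).1 hg
    obtain ⟨h3, h4⟩ := (mem_commutator_iff_homs hnd hR (h : OGrp (qfMinus m F a b))).1 h.2
    rcases hc with rfl | rfl
    · have : g = h := OGrp_ext fun v => by rw [hh, one_smul]
      rw [this, h4]
      exact ⟨h3, Or.inl rfl⟩
    · have : g = nO (qfMinus m F a b) * (h : OGrp (qfMinus m F a b)) := OGrp_ext fun v => by
        rw [hh, neg_smul, one_smul]; rfl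
      rw [this, map_mul, map_mul, h3, h4, hn1, mul_one, mul_one]
      exact ⟨rfl, Or.inr rfl⟩
  have hone : sqc (-1 : F) = 1 ↔ p ^ f % 4 ≠ 3 := by
    rw [← hF, ← FiniteField.isSquare_neg_one_iff]
    rw [sqc]
    constructor
    · intro h
      by_contra h'
      rw [if_neg h'] at h
      exact absurd h (by decide)
    · intro h
      rw [if_pos h]
  have hfrob0 : frj F p 0 = 1 := (frj_eq_one_iff hF' hf 0).2 (dvd_zero f)
  -- classes of isometries
  have hO : ∀ k : OGrp (qfMinus m F a b), ∃ i j : ℕ, oP _ (ofO _ k) = (s ^ 2) ^ i * (y ^ f) ^ j := by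
    intro k
    have hpr : ∀ k : OGrp (qfMinus m F a b), parityHom hnd hR k = 1 → ∃ i : ℕ, oP _ (ofO _ k) = (s ^ 2) ^ i := by
      intro k hk
      by_cases hk2 : spinHom hnd hR k = 1
      · exact ⟨0, by rw [pow_zero, hker' k hk hk2]⟩
      have hk3 := units_int_ne_one hk2
      by_cases hA4 : spinHom hnd hR A = -1
      · refine ⟨1, ?_⟩
        rw [pow_one, hs2, ← mul_inv_eq_one, ← map_inv, ← map_mul, ← map_inv, ← map_mul]
        apply hker'
        · rw [map_mul, map_inv, hk, hA2]; rfl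
        · rw [map_mul, map_inv, hk3, hA4]; rfl
      · -- then minus one has spinor norm -1
        have hA5 : spinHom hnd hR A = 1 := by
          rcases Int.units_eq_one_or (spinHom hnd hR A) with h | h
          · exact h
          · exact absurd h hA4
        rw [hA5] at hA3
        have hmo : Odd m := by
          rcases Nat.even_or_odd (m + 1) with h | h
          · rcases Nat.even_or_odd m with h' | h'
            · exfalso
              obtain ⟨x, hx⟩ := h
              obtain ⟨z, hz⟩ := h'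
              omega
            · exact h'
          · rw [h.neg_one_pow] at hA3
            exact absurd hA3 (by decide)
        refine ⟨0, ?_⟩
        rw [pow_zero]
        have hn3 : spinHom hnd hR (nO (qfMinus m F a b)) = -1 := by
          rw [hn2]
          rcases Int.units_eq_one_or (sqc (-1 : F)) with h | h
          · rw [h, one_pow, one_mul]
          · rw [h, hmo.neg_one_pow]; rfl
        have h5 : oP _ (ofO (qfMinus m F a b) (k * nO _)) = 1 := by
          apply hker'
          · rw [map_mul, hk, hn1, mul_one]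
          · rw [map_mul, hk3, hn3]; rfl
        rw [map_mul, map_mul, hon, mul_one] at h5
        exact h5
    by_cases hk : parityHom hnd hR k = 1
    · obtain ⟨i, hi⟩ := hpr k hk
      exact ⟨i, 0, by rw [hi, pow_zero, mul_one]⟩
    · obtain ⟨i, hi⟩ := hpr (k * (rK m w0_ne)⁻¹) (by
        rw [map_mul, map_inv, rK, parityHom_refl, units_int_ne_one hk]; rfl)
      refine ⟨i, 1, ?_⟩
      rw [← hi, pow_one, hyf, ← map_mul, ← map_mul, inv_mul_cancel_right]
  -- y normalizes <s>
  have hcommn : ∀ (i j : ℕ), ∃ k : ℕ, y ^ j * s ^ i = s ^ k * y ^ j := by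
    have h1 : ∀ i : ℕ, y * s ^ i = s ^ (p * i) * y := by
      intro i
      induction i with
      | zero => rw [mul_zero, pow_zero, mul_one, one_mul]
      | succ i ih => rw [pow_succ, ← mul_assoc, ih, mul_assoc, hcomm, ← mul_assoc, ← pow_add, Nat.mul_succ]
    intro i j
    induction j with
    | zero => exact ⟨i, by rw [pow_zero, one_mul, mul_one]⟩
    | succ j ih =>
      obtain ⟨k, hk⟩ := ih
      exact ⟨p * k, by rw [pow_succ', mul_assoc, hk, ← mul_assoc, h1, mul_assoc]⟩
  have hgen : ∀ g : Cfsg.Out (T (qfMinus m F a b)), ∃ i j : ℕ, g = s ^ i * y ^ j := by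
    intro g
    obtain ⟨g, rfl⟩ := oP_surjective hall g
    obtain ⟨κ, j, k, rfl⟩ := gam_decomp p hF' hf g
    obtain ⟨i1, j1, h1⟩ := hO k
    -- the class of gK κ 0
    obtain ⟨i2, j2, h3⟩ : ∃ i2 j2 : ℕ, oP _ (gK p m κ 0) = s ^ i2 * y ^ j2 := by
      by_cases hsq : IsSquare ((nu κ : Fˣ) : F)
      · obtain ⟨d, k', hk'⟩ := exists_scl_ofO (f := gK p m κ 0) (c := nu κ) (by
          have := isSemi_gK (m := m) p κ 0
          rwa [hfrob0] at this) hsq
        obtain ⟨i2, j2, h2⟩ := hO k'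
        exact ⟨2 * i2, f * j2, by rw [hk', map_mul, oP_scl, one_mul, h2, pow_mul, pow_mul]⟩
      · have h4 : gK p m κ 0 = gK p m κ0 0 * gK p m (κ0⁻¹ * κ) 0 := by
          rw [gK_mul, pow_zero, pow_one, mul_inv_cancel_left, add_zero]
        have h5 : IsSquare ((nu (κ0⁻¹ * κ) : Fˣ) : F) := by
          have h6 : sqc ((nu (κ0⁻¹ * κ) : Fˣ) : F) = 1 := by
            rw [map_mul, map_inv, Units.val_mul, sqc_mul (Units.ne_zero _) (Units.ne_zero _), sqc_eq_of_iff
              (b := ((nu κ0 : Fˣ) : F)) (by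
                rw [Units.val_inv_eq_inv_val, isSquare_inv]), hκc, hsqc, sqc, if_neg hsq]
            rfl
          by_contra h7
          rw [sqc, if_neg h7] at h6
          exact absurd h6 (by decide)
        obtain ⟨d, k', hk'⟩ := exists_scl_ofO (f := gK p m (κ0⁻¹ * κ) 0) (c := nu (κ0⁻¹ * κ)) (by
          have := isSemi_gK (m := m) p (κ0⁻¹ * κ) 0
          rwa [hfrob0] at this) h5
        obtain ⟨i2, j2, h2⟩ := hO k'
        exact ⟨1 + 2 * i2, f * j2, by
          rw [h4, map_mul, hk', map_mul, oP_scl, one_mul, h2, pow_add, pow_one, pow_mul, pow_mul, mul_assoc]⟩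
    obtain ⟨k3, hk3⟩ := hcommn (2 * i1) (j2 + j)
    refine ⟨i2 + k3, j2 + j + f * j1, ?_⟩
    rw [map_mul, map_mul, h3, ← hypow, h1]
    calc s ^ i2 * y ^ j2 * y ^ j * ((s ^ 2) ^ i1 * (y ^ f) ^ j1)
        = s ^ i2 * (y ^ (j2 + j) * s ^ (2 * i1)) * y ^ (f * j1) := by
          rw [pow_add, pow_mul s, pow_mul y]; simp only [mul_assoc]
      _ = s ^ i2 * (s ^ k3 * y ^ (j2 + j)) * y ^ (f * j1) := by rw [hk3]
      _ = _ := by rw [pow_add s, pow_add y (j2 + j)]; simp only [mul_assoc]
  have hs4 : s ^ 4 = 1 := by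
    rw [show 4 = 2 * 2 by norm_num, pow_mul, hs2, ← map_pow, ← map_pow]
    apply hker'
    · rw [map_pow, hA2, one_pow]
    · rw [map_pow, hA3, ← pow_mul]
      exact Even.neg_one_pow ⟨m + 1, by ring⟩
  -- kernel
  have hK : ∀ i j : ℕ, s ^ i * y ^ j = 1 → 2 ∣ i ∧ f ∣ j := by
    intro i j hij
    rw [hspow, hypow, ← map_mul, gK_mul, one_pow, mul_one, zero_add, oP_eq_one_iff] at hij
    obtain ⟨d, g, hdg⟩ := hij
    have h3 := isSemi_gK (m := m) p (κ0 ^ i) j
    rw [hdg] at h3
    have h4 := (isSemi_scl (Q := qfMinus m F a b) d).mul (isSemi_ofO (g : OGrp (qfMinus m F a b)))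
    have h5 := IsSemi.uniq h3 h4 hnt
    rw [one_mul, frj_eq_one_iff hF' hf] at h5
    refine ⟨?_, h5⟩
    have h6 := IsSemi.uniq_c h3 h4 hnt (v := vK m (1 : KK a b)) (q_vK_ne one_ne_zero)
    have h7 : sqc ((nu (κ0 ^ i) : Fˣ) : F) = 1 := by
      rw [h6, map_one, mul_one, Units.val_pow_eq_pow_val, sqc, if_pos ⟨(d : F), pow_two _⟩]
    have h8 : sqc ((nu (κ0 ^ i) : Fˣ) : F) = (-1) ^ i := by
      clear h7 h6 h3 hdg
      induction i with
      | zero => rw [pow_zero, map_one, Units.val_one, sqc_one', pow_zero]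
      | succ i ih => rw [pow_succ, map_mul, Units.val_mul, sqc_mul (Units.ne_zero _) (Units.ne_zero _), ih, hκc, hsqc, pow_succ]
    rw [h8] at h7
    rcases Nat.even_or_odd i with h | h
    · exact h.two_dvd
    · rw [h.neg_one_pow] at h7
      exact absurd h7 (by decide)
  refine ⟨s, y, hcomm, hy2f, hs4, hgen, ?_, ?_⟩
  · intro hcase
    -- s^2 = 1
    have hs21 : s ^ 2 = 1 := by
      rw [hs2]
      rcases Nat.even_or_odd m with he | ho
      · -- -1 is a square, spin A = -1, spin(-1) = -1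
        have h3 : p ^ f % 4 ≠ 3 := fun h => hcase ⟨h, he⟩
        have h4 := hone.2 h3
        have h5 : oP _ (ofO (qfMinus m F a b) (A * nO _)) = 1 := by
          apply hker'
          · rw [map_mul, hA2, hn1, mul_one]
          · rw [map_mul, hA3, hn2, h4, one_pow, (he.add_one).neg_one_pow]; rfl
        rw [map_mul, map_mul, hon, mul_one] at h5
        exact h5
      · apply hker' A hA2
        rw [hA3, (ho.add_one).neg_one_pow]
    refine ⟨hs21, fun i j hij => ?_⟩
    obtain ⟨h3, h4⟩ := hK i j hij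
    refine ⟨h3, ?_⟩
    obtain ⟨i', rfl⟩ := h3
    obtain ⟨j', rfl⟩ := h4
    rw [pow_mul, hs21, one_pow, one_mul, pow_mul, hyf, ← map_pow, ← map_pow] at hij
    have h5 := (hker _ hij).1
    rw [map_pow, rK, parityHom_refl] at h5
    rcases Nat.even_or_odd j' with h | h
    · rw [mul_comm 2 f]
      exact Nat.mul_dvd_mul_left f h.two_dvd
    · rw [h.neg_one_pow] at h5
      exact absurd h5 (by decide)
  · rintro ⟨hq3, he⟩ i j hij
    obtain ⟨h3, h4⟩ := hK i j hij
    obtain ⟨i', rfl⟩ := h3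
    obtain ⟨j', rfl⟩ := h4
    rw [pow_mul, hs2, pow_mul, hyf, ← map_pow, ← map_pow, ← map_pow, ← map_pow, ← map_mul, ← map_mul] at hij
    obtain ⟨h5, h6⟩ := hker _ hij
    have hn4 : spinHom hnd hR (nO (qfMinus m F a b)) = 1 := by
      have h7 : sqc (-1 : F) = -1 := units_int_ne_one fun h => hone.1 h hq3
      rw [hn2, h7, he.neg_one_pow]; rfl
    rw [map_mul, map_pow, map_pow, hA2, one_pow, one_mul, rK, parityHom_refl] at h5
    have hj' : Even j' := by
      rcases Nat.even_or_odd j' with h | h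
      · exact h
      · rw [h.neg_one_pow] at h5
        exact absurd h5 (by decide)
    refine ⟨?_, by rw [mul_comm 2 f]; exact Nat.mul_dvd_mul_left f hj'.two_dvd⟩
    rw [hn4, or_self, map_mul, map_pow, map_pow, hA3, (he.add_one).neg_one_pow, rK, spinHom_refl] at h6
    obtain ⟨j'', rfl⟩ := hj'
    rw [← two_mul, pow_mul, Int.units_sq, one_pow, mul_one] at h6
    have hi' : Even i' := by
      rcases Nat.even_or_odd i' with h | h
      · exact h
      · rw [h.neg_one_pow] at h6
        exact absurd h6 (by decide)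
    obtain ⟨k, hk⟩ := hi'
    exact ⟨k, by omega⟩

end K

end Cfsg.Agent.AutO

namespace Cfsg.Agent.AutO

open QuadraticMap Cfsg.Agent.ClassO
open Cfsg.Agent.Orth hiding map_mul two_ne_zero_of_odd

/-- powers indexed by `ZMod n` -/
def zpowHom {G : Type*} [Group G] {n : ℕ} [NeZero n] (x : G) (hx : x ^ n = 1) : Multiplicative (ZMod n) →* G where
  toFun k := x ^ (Multiplicative.toAdd k).val
  map_one' := by
    change x ^ (0 : ZMod n).val = 1
    rw [ZMod.val_zero, pow_zero]
  map_mul' s t := by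
    change x ^ (Multiplicative.toAdd s + Multiplicative.toAdd t).val = _
    rw [ZMod.val_add, pow_mod_of hx, pow_add]

/-- recognition of `D_8 × C_f` -/
theorem iso_dih {G : Type*} [Group G] {f : ℕ} (hf : f ≠ 0) (s R ψ : G) (hs : s ^ 4 = 1) (hR : R ^ 2 = 1) (hRs : R * s = s ^ 3 * R)
    (hψ : ψ ^ f = 1) (hψs : ψ * s = s * ψ) (hψR : ψ * R = R * ψ) (hgen : ∀ g, ∃ i j k : ℕ, g = s ^ i * R ^ j * ψ ^ k)
    (hinj : ∀ i j k : ℕ, s ^ i * R ^ j * ψ ^ k = 1 → 4 ∣ i ∧ 2 ∣ j ∧ f ∣ k) :
    Nonempty (G ≃* DihedralGroup 4 × Multiplicative (ZMod f)) := by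
  have _i1 : NeZero f := ⟨hf⟩
  have hRR : R * R = 1 := by rw [← pow_two, hR]
  have hRn : ∀ n : ℕ, R * s ^ n = s ^ (3 * n) * R := by
    intro n
    induction n with
    | zero => rw [mul_zero, pow_zero, mul_one, one_mul]
    | succ n ih => rw [pow_succ, ← mul_assoc, ih, mul_assoc, hRs, ← mul_assoc, ← pow_add, Nat.mul_succ]
  let S : ZMod 4 → G := fun i => s ^ i.val
  have hS0 : S 0 = 1 := by change s ^ (0 : ZMod 4).val = 1; rw [ZMod.val_zero, pow_zero]
  have hSadd : ∀ i j : ZMod 4, S (i + j) = S i * S j := by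
    intro i j
    change s ^ (i + j).val = s ^ i.val * s ^ j.val
    rw [ZMod.val_add, pow_mod_of hs, pow_add]
  have hRS : ∀ i : ZMod 4, R * S i = S (-i) * R := by
    intro i
    change R * s ^ i.val = s ^ (-i).val * R
    rw [hRn]
    congr 1
    rw [← pow_mod_of hs (3 * i.val), ← pow_mod_of hs (-i).val]
    congr 1
    revert i
    decide
  let D : DihedralGroup 4 →* G :=
    { toFun := fun d => match d with
        | DihedralGroup.r i => S i
        | DihedralGroup.sr i => R * S i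
      map_one' := hS0
      map_mul' := fun x y => by
        rcases x with i | i <;> rcases y with j | j
        · rw [DihedralGroup.r_mul_r]
          exact hSadd i j
        · rw [DihedralGroup.r_mul_sr]
          change R * S (j - i) = S i * (R * S j)
          rw [← mul_assoc, show S i * R = R * S (-i) by rw [hRS, neg_neg], mul_assoc, ← hSadd]
          congr 2
          ring
        · rw [DihedralGroup.sr_mul_r]
          change R * S (i + j) = R * S i * S j
          rw [hSadd, mul_assoc]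
        · rw [DihedralGroup.sr_mul_sr]
          change S (j - i) = R * S i * (R * S j)
          rw [hRS, mul_assoc, ← mul_assoc R R, hRR, one_mul, ← hSadd]
          congr 1
          ring }
  have hDr : ∀ i, D (DihedralGroup.r i) = S i := fun i => rfl
  have hDsr : ∀ i, D (DihedralGroup.sr i) = R * S i := fun i => rfl
  have hψs' : ∀ k n : ℕ, Commute (s ^ n) (ψ ^ k) := fun k n => (Commute.pow_pow (show Commute s ψ from hψs.symm) n k)
  have hcomm : ∀ (d : DihedralGroup 4) (k : Multiplicative (ZMod f)), Commute (D d) (zpowHom ψ hψ k) := by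
    intro d k
    rcases d with i | i
    · exact hψs' _ _
    · exact Commute.mul_left (Commute.pow_right (show Commute R ψ from hψR.symm) _) (hψs' _ _)
  let Φ : DihedralGroup 4 × Multiplicative (ZMod f) →* G := MonoidHom.noncommCoprod D (zpowHom ψ hψ) hcomm
  have hΦ : ∀ d k, Φ (d, k) = D d * zpowHom ψ hψ k := fun d k => rfl
  have hbij : Function.Bijective Φ := by
    constructor
    · rw [injective_iff_map_eq_one]
      rintro ⟨d, k⟩ h
      rw [hΦ] at h
      rcases d with i | i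
      · have h' : s ^ i.val * R ^ 0 * ψ ^ (Multiplicative.toAdd k).val = 1 := by rw [pow_zero, mul_one]; exact h
        obtain ⟨h1, _, h3⟩ := hinj _ _ _ h'
        have h4 : i = 0 := by
          rw [← ZMod.val_eq_zero]
          exact Nat.eq_zero_of_dvd_of_lt h1 (ZMod.val_lt _)
        have h5 : Multiplicative.toAdd k = 0 := by
          rw [← ZMod.val_eq_zero]
          exact Nat.eq_zero_of_dvd_of_lt h3 (ZMod.val_lt _)
        rw [h4]
        exact Prod.ext rfl h5
      · exfalso
        have h' : s ^ (3 * i.val) * R ^ 1 * ψ ^ (Multiplicative.toAdd k).val = 1 := by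
          rw [pow_one, ← hRn]; exact h
        obtain ⟨_, h2, _⟩ := hinj _ _ _ h'
        omega
    · intro g
      obtain ⟨i, j, k, rfl⟩ := hgen g
      refine ⟨(DihedralGroup.r (i : ZMod 4) * (DihedralGroup.sr 0) ^ j, Multiplicative.ofAdd (k : ZMod f)), ?_⟩
      rw [hΦ, map_mul, map_pow, hDr, hDsr, hS0, mul_one]
      change s ^ ((i : ZMod 4)).val * R ^ j * ψ ^ ((k : ZMod f)).val = _
      rw [ZMod.val_natCast, ZMod.val_natCast, pow_mod_of hs, pow_mod_of hψ]
  exact ⟨(MulEquiv.ofBijective Φ hbij).symm⟩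

theorem out_minus_odd {F : Type*} [Field F] [Fintype F] {a b : F} {m : ℕ} [hab : Fact (∀ r : F, r ^ 2 ≠ -b + a * r)]
    {p f : ℕ} [hp : Fact p.Prime] (hf : 1 ≤ f) (hF : Fintype.card F = p ^ f) (hp2 : p ≠ 2) (hm : 3 ≤ m) :
    (¬ (p ^ f % 4 = 3 ∧ Even m) → Nonempty (Cfsg.Out (T (qfMinus m F a b)) ≃* Multiplicative (ZMod 2 × ZMod (2 * f)))) ∧
    (p ^ f % 4 = 3 ∧ Even m → Nonempty (Cfsg.Out (T (qfMinus m F a b)) ≃* DihedralGroup 4 × Multiplicative (ZMod f))) := by
  have hcp : CharP F p := AutLie.charP_of_card hF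
  obtain ⟨s, y, hc, hy, hs4, hgen, h1, h2⟩ := out_minus_odd_aux (a := a) (b := b) (m := m) hf hF hp2 hm
  have hpodd := hp.out.odd_of_ne_two hp2
  constructor
  · intro h
    obtain ⟨hs2, hinj⟩ := h1 h
    refine iso_of_gens (by norm_num) (by omega) s y hs2 hy ?_ hgen hinj
    obtain ⟨k, hk⟩ := hpodd
    rw [hc, hk, pow_succ, pow_mul, hs2, one_pow, one_mul]
  · intro h
    have hinj := h2 h
    obtain ⟨hq, _⟩ := h
    -- p ≡ 3 mod 4, f odd
    have hp4 : p % 4 = 3 ∧ Odd f := by
      obtain ⟨k, hk⟩ := hpodd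
      have h3 : p % 4 = 1 ∨ p % 4 = 3 := by omega
      rcases Nat.even_or_odd f with he | ho
      · exfalso
        obtain ⟨l, hl⟩ := he
        have h4 : p ^ f % 4 = 1 := by
          rw [hl, ← two_mul, pow_mul, Nat.pow_mod]
          have : p ^ 2 % 4 = 1 := by
            rw [Nat.pow_mod]
            rcases h3 with h | h <;> rw [h]
          rw [this, one_pow]
          norm_num
        omega
      · refine ⟨?_, ho⟩
        rcases h3 with h | h
        · exfalso
          rw [Nat.pow_mod, h, one_pow] at hq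
          norm_num at hq
        · exact h
    obtain ⟨hp3, hfo⟩ := hp4
    have hyn : ∀ n : ℕ, y ^ n * s = s ^ (p ^ n) * y ^ n := by
      have hyp : ∀ n : ℕ, y * s ^ n = s ^ (p * n) * y := by
        intro n
        induction n with
        | zero => rw [mul_zero, pow_zero, mul_one, one_mul]
        | succ n ih => rw [pow_succ, ← mul_assoc, ih, mul_assoc, hc, ← mul_assoc, ← pow_add, Nat.mul_succ]
      intro n
      induction n with
      | zero => rw [pow_zero, pow_zero, pow_one, one_mul, mul_one]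
      | succ n ih => rw [pow_succ', mul_assoc, ih, ← mul_assoc, hyp, mul_assoc, ← pow_succ', ← pow_succ']
    obtain ⟨l, hl⟩ := hfo
    refine iso_dih (f := f) (by omega) s (y ^ f) (y ^ (f + 1)) hs4 ?_ ?_ ?_ ?_ ?_ ?_ ?_
    · rw [← pow_mul, mul_comm, hy]
    · rw [hyn, ← pow_mod_of hs4 (p ^ f), hq]
    · rw [← pow_mul, show (f + 1) * f = 2 * f * (l + 1) by rw [hl]; ring, pow_mul, hy, one_pow]
    · rw [hyn, ← pow_mod_of hs4 (p ^ (f + 1)), pow_succ, Nat.mul_mod, hq, hp3]
      norm_num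
    · rw [← pow_add, ← pow_add, add_comm]
    · intro g
      obtain ⟨i, j, rfl⟩ := hgen g
      refine ⟨i, j, j, ?_⟩
      have : y ^ (f * j) * y ^ ((f + 1) * j) = y ^ j := by
        rw [← pow_add, show f * j + (f + 1) * j = 2 * f * j + j by ring, pow_add, pow_mul, hy, one_pow, one_mul]
      rw [mul_assoc, ← pow_mul, ← pow_mul, this]
    · intro i j k hijk
      rw [mul_assoc, ← pow_mul, ← pow_mul, ← pow_add] at hijk
      obtain ⟨h3, h4⟩ := hinj _ _ hijk
      refine ⟨h3, ?_⟩
      -- 2f ∣ f j + (f+1) k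
      have hfk : f ∣ k := by
        have h5 : f ∣ f * j + (f + 1) * k := (Dvd.intro_left 2 rfl).trans h4
        have h6 : f * j + (f + 1) * k = f * (j + k) + k := by ring
        rw [h6] at h5
        exact (Nat.dvd_add_right (Dvd.intro _ rfl)).1 h5
      refine ⟨?_, hfk⟩
      obtain ⟨k', rfl⟩ := hfk
      have h5 : 2 * f ∣ f * (j + (f + 1) * k') := by
        have : f * (j + (f + 1) * k') = f * j + (f + 1) * (f * k') := by ring
        rw [this]; exact h4
      rw [mul_comm 2 f] at h5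
      have h6 := Nat.dvd_of_mul_dvd_mul_left (by omega) h5
      have h7 : 2 ∣ (f + 1) * k' := by
        refine Dvd.dvd.mul_right ?_ _
        exact ⟨l + 1, by omega⟩
      exact (Nat.dvd_add_left h7).1 h6

end Cfsg.Agent.AutO
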